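import Mathlib
import Cfsg.Agent.Base
import Cfsg.Agent.Lib.FrobC.Perfect
import Cfsg.Agent.Lib.Core.PCore
import Cfsg.Agent.S0017

/-!
The normal Z-subgroup of a Frobenius complement with small quotient (helper82).
-/

set_option autoImplicit false

namespace H82

open Subgroup Cfsg

variable {G : Type*} [Group G] [Finite G]

/-- The Frattini quotient of a generalized quaternion group. -/
def quatToKlein (m : ℕ) : QuaternionGroup (2 * m) →* DihedralGroup 2 :=
  MonoidHom.mk' (fun g => match g with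
    | .a i => .r (ZMod.castHom (Dvd.intro _ rfl) (ZMod 2) i)
    | .xa i => .sr (ZMod.castHom (Dvd.intro _ rfl) (ZMod 2) i)) (by
      rintro (i | i) (j | j)
      · simp only [QuaternionGroup.a_mul_a, DihedralGroup.r_mul_r, map_add]
      · simp only [QuaternionGroup.a_mul_xa, DihedralGroup.r_mul_sr, map_sub]
      · simp only [QuaternionGroup.xa_mul_a, DihedralGroup.sr_mul_r, map_add]
      · simp only [QuaternionGroup.xa_mul_xa, DihedralGroup.sr_mul_sr, map_sub, map_add,
          map_natCast, (ZMod.natCast_eq_zero_iff (2 * m) 2).2 (Dvd.intro _ rfl), zero_add])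

theorem quatToKlein_surjective (m : ℕ) : Function.Surjective (quatToKlein m) := by
  rintro (i | i) <;>
    obtain ⟨j, rfl⟩ := ZMod.castHom_surjective (Dvd.intro (2 * m) rfl : 2 ∣ 2 * (2 * m)) i
  exacts [⟨.a j, rfl⟩, ⟨.xa j, rfl⟩]

theorem quatToKlein_ker (m : ℕ) [NeZero (2 * m)] :
    (quatToKlein m).ker ≤ zpowers (QuaternionGroup.a 1) := by
  rintro (i | i) h
  · exact quat_a_mem _ i
  · cases h

omit [Finite G] in
/-- A `2`-subgroup embeds into the quotient by a normal subgroup of odd order. -/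
theorem injective_of_coprime {X : Type*} [Group X] (π : G →* X) {U : Subgroup G}
    (hU : IsPGroup 2 U) (hO : (Nat.card π.ker).Coprime 2) :
    Function.Injective (π.comp U.subtype) := by
  rw [injective_iff_map_eq_one]
  intro u hu
  obtain ⟨k, hk⟩ := hU u
  have h1 : orderOf (u : G) ∣ Nat.card π.ker := orderOf_dvd_natCard π.ker hu
  rw [orderOf_coe] at h1
  exact orderOf_eq_one_iff.1 (Nat.eq_one_of_dvd_coprimes (hO.pow_right k) h1
    (orderOf_dvd_of_pow_eq_one hk))

theorem IntFPF.isZGroup_comap (h : IntFPF G) {X : Type*} [Group X] (π : G →* X)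
    (hO : (Nat.card π.ker).Coprime 2) (Z : Subgroup X) [IsCyclic Z] : IsZGroup (Z.comap π) := by
  refine (h.subgroup _).isZGroup fun P => ?_
  have := injective_of_coprime π (P.2.map (Z.comap π).subtype) hO
  have h2 : IsCyclic ((P : Subgroup (Z.comap π)).map (Z.comap π).subtype) := by
    refine isCyclic_of_injective ((π.comp (Subgroup.subtype _)).codRestrict Z ?_)
      fun a b e => this (congrArg Subtype.val e)
    rintro ⟨_, y, -, rfl⟩
    exact y.2
  exact (equivMapOfInjective _ _ (subtype_injective _)).isCyclic.2 h2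

theorem card_center_q8 : Nat.card (center (QuaternionGroup 2)) = 2 := by
  have : center (QuaternionGroup 2) = zpowers (QuaternionGroup.a 2) := by
    refine le_antisymm (fun g hg => ?_) (zpowers_le.2 (mem_center_iff.2 (by decide)))
    have key : ∀ g : QuaternionGroup 2, (∀ y, y * g = g * y) → g = 1 ∨ g = .a 2 := by decide
    rcases key g (mem_center_iff.1 hg) with rfl | rfl
    exacts [one_mem _, mem_zpowers _]
  rw [this, Nat.card_zpowers]
  exact orderOf_eq_prime (by decide) (by decide)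

/-- The solvable case. -/
theorem IntFPF.exists_core_solvable (h : IntFPF G) (hs : Group.IsSolvable G) :
    ∃ N : Subgroup G, N.Normal ∧ IsZGroup N ∧ (N = ⊤ ∨
      (∃ f : G →* DihedralGroup 2, Function.Surjective f ∧ f.ker = N) ∨
      (∃ f : G →* alternatingGroup (Fin 4), Function.Surjective f ∧ f.ker = N) ∨
      (∃ f : G →* Equiv.Perm (Fin 4), Function.Surjective f ∧ f.ker = N)) := by
  let O := pPrimeCore 2 G
  let π := QuotientGroup.mk' O
  have hO : (Nat.card π.ker).Coprime 2 := by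
    rw [QuotientGroup.ker_mk']; exact H1.coprime_card_pPrimeCore
  have hsub : ∀ T : Subgroup (G ⧸ O), IsPGroup 2 T → IntFPF T := by
    intro T hT
    obtain ⟨Q, hQ⟩ := hT.exists_le_sylow
    obtain ⟨P, rfl⟩ := Sylow.mapSurjective_surjective (QuotientGroup.mk'_surjective O) 2 Q
    have hinj := injective_of_coprime π P.2 hO
    have hr : T ≤ (π.comp (P : Subgroup G).subtype).range := by
      rwa [← MonoidHom.map_range, range_subtype]
    exact ((h.subgroup P).of_equiv (MonoidHom.ofInjective hinj)).of_injective (inclusion hr)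
      (inclusion_injective hr)
  by_cases h2 : IsPGroup 2 (G ⧸ O)
  · rcases ((hsub ⊤ (h2.to_subgroup _)).of_equiv topEquiv).two_cases h2 with h3 | ⟨n, ⟨e⟩⟩
    · exact ⟨⊤, inferInstance, h.isZGroup_comap π hO ⊤, Or.inl rfl⟩
    · rw [pow_succ'] at e
      let π' := e.toMonoidHom.comp π
      have hO' : (Nat.card π'.ker).Coprime 2 := by
        rwa [MonoidHom.ker_comp_of_injective _ _ e.injective]
      refine ⟨((quatToKlein _).comp π').ker, inferInstance, ?_, Or.inr (Or.inl ⟨_,
        (quatToKlein_surjective _).comp (e.surjective.comp (QuotientGroup.mk'_surjective O)), rfl⟩)⟩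
      have := isCyclic_of_le (quatToKlein_ker (2 ^ n))
      exact h.isZGroup_comap π' hO' (quatToKlein _).ker
  let T := pCore 2 (G ⧸ O)
  have hC : centralizer (T : Set (G ⧸ O)) ≤ T :=
    Cfsg.Agent.S0017.result 2 H1.pPrimeCore_quotient_pPrimeCore
  let ψ : G ⧸ O →* MulAut T := MulAut.conjNormal
  have hψ : ψ.ker = centralizer (T : Set (G ⧸ O)) := by
    ext g
    rw [MonoidHom.mem_ker, mem_centralizer_iff, MulEquiv.ext_iff]
    constructor
    · intro hg y hy
      exact (mul_inv_eq_iff_eq_mul.1 (congrArg Subtype.val (hg ⟨y, hy⟩))).symm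
    · intro hg y
      exact Subtype.ext (mul_inv_eq_iff_eq_mul.2 (hg y y.2).symm)
  have hnp : ¬ IsPGroup 2 ψ.range := fun h3 => h2 (by
    have := h3.comap_of_ker_isPGroup ψ (H1.isPGroup_pCore.to_le (hψ ▸ hC))
    rw [MonoidHom.range_eq_map, comap_map_eq, top_sup_eq] at this
    exact this.of_equiv topEquiv)
  obtain ⟨e⟩ := ((hsub T H1.isPGroup_pCore).aut_cases H1.isPGroup_pCore).resolve_left
    fun h3 => hnp (h3.to_subgroup _)
  obtain ⟨e'⟩ := Cfsg.Agent.S3742.result
  let ε := (MulAut.congr e).trans e'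
  let f := (ε.toMonoidHom.comp ψ).comp π
  have hk : f.ker = ψ.ker.comap π := by
    rw [← MonoidHom.comap_ker, MonoidHom.ker_comp_of_injective _ _ ε.injective]
  have hc2 : Nat.card ψ.ker ∣ 2 := by
    rw [hψ]
    refine Dvd.dvd.trans ?_ card_center_q8.dvd
    refine card_dvd_of_injective ((e.toMonoidHom.comp (inclusion hC)).codRestrict _ fun y => ?_)
      fun a b hab => inclusion_injective hC (e.injective (congrArg Subtype.val hab))
    rw [mem_center_iff]
    intro w
    obtain ⟨w, rfl⟩ := e.surjective w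
    change e w * e _ = e _ * e w
    rw [← map_mul, ← map_mul]
    exact congrArg e (Subtype.ext (y.2 w w.2))
  have hZ : IsZGroup f.ker := by
    have := isCyclic_of_card_dvd_prime hc2
    rw [hk]
    exact h.isZGroup_comap π hO _
  have hr : Nat.card f.range = Nat.card ψ.range := by
    rw [← index_ker, ← index_ker, hk, index_comap_of_surjective _ (QuotientGroup.mk'_surjective O)]
  have h4 : 4 ∣ Nat.card ψ.range := by
    have h8 := card_subgroup_dvd_card T
    rw [Nat.card_congr e.toEquiv, card_quat, ← ψ.ker.card_mul_index, index_ker] at h8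
    exact Nat.dvd_of_mul_dvd_mul_left two_pos (h8.trans (Nat.mul_dvd_mul_right hc2 _))
  have h24 := f.range.card_mul_index
  rw [hr, Nat.card_perm, Nat.card_fin] at h24
  have hi : f.range.index = 1 ∨ f.range.index = 2 := by
    obtain ⟨c, hc⟩ := h4
    have h6 : c * f.range.index = 6 := by
      rw [hc, mul_assoc] at h24
      simp only [Nat.factorial] at h24
      omega
    have h7 : c ≠ 1 := by rintro rfl; exact hnp (IsPGroup.of_card (n := 2) hc)
    have h8 : c ≠ 2 := by rintro rfl; exact hnp (IsPGroup.of_card (n := 3) hc)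
    have h9 := Nat.le_of_dvd (by norm_num) (Dvd.intro _ h6)
    interval_cases c <;> omega
  refine ⟨f.ker, inferInstance, hZ, Or.inr (Or.inr ?_)⟩
  rcases hi with hi | hi
  · exact Or.inr ⟨f, MonoidHom.range_eq_top.1 (index_eq_one.1 hi), rfl⟩
  · have hA := Equiv.Perm.eq_alternatingGroup_of_index_eq_two hi
    refine Or.inl ⟨f.codRestrict _ fun g => hA.le ⟨g, rfl⟩, fun y => ?_,
      MonoidHom.ker_codRestrict ..⟩
    obtain ⟨g, hg⟩ : (y : Equiv.Perm (Fin 4)) ∈ f.range := hA.ge y.2
    exact ⟨g, Subtype.ext hg⟩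

theorem IntFPF.exists_core_nonsolvable (h : IntFPF G) (hs : ¬ Group.IsSolvable G) :
    ∃ N : Subgroup G, N.Normal ∧ IsZGroup N ∧
      ((∃ f : G →* alternatingGroup (Fin 5), Function.Surjective f ∧ f.ker = N) ∨
      (∃ f : G →* Equiv.Perm (Fin 5), Function.Surjective f ∧ f.ker = N)) := by
  obtain ⟨θ, f, M, hs⟩ := h.exists_nonSolv hs
  refine ⟨f.ker, inferInstance, hs.isZGroup_ker h, ?_⟩
  have hle : alternatingGroup (Fin 5) ≤ f.range := by
    rw [← hs.range]; rintro _ ⟨s, rfl⟩; exact ⟨θ s, rfl⟩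
  have h1 := index_dvd_of_le hle
  rw [alternatingGroup.index_eq_two, Nat.dvd_prime Nat.prime_two] at h1
  rcases h1 with hi | hi
  · exact Or.inr ⟨f, MonoidHom.range_eq_top.1 (index_eq_one.1 hi), rfl⟩
  · have hA := Equiv.Perm.eq_alternatingGroup_of_index_eq_two hi
    refine Or.inl ⟨f.codRestrict _ fun g => hA.le ⟨g, rfl⟩, fun y => ?_,
      MonoidHom.ker_codRestrict ..⟩
    obtain ⟨g, hg⟩ : (y : Equiv.Perm (Fin 5)) ∈ f.range := hA.ge y.2
    exact ⟨g, Subtype.ext hg⟩

/-! ### Uniqueness -/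

/-- No nontrivial normal subgroup is a Z-group. -/
def NoZ (X : Type*) [Group X] : Prop := ∀ K : Subgroup X, K.Normal → IsZGroup K → K = ⊥

theorem not_isZGroup_of_klein {X : Type*} [Group X] [Finite X] {a b : X} (ha : a ≠ 1) (hb : b ≠ 1)
    (hab : a ≠ b) (ha2 : a * a = 1) (hb2 : b * b = 1) (hc : a * b = b * a) : ¬ IsZGroup X := by
  intro hZ
  let V : Subgroup X :=
    { carrier := {x | x = 1 ∨ x = a ∨ x = b ∨ x = a * b}
      one_mem' := Or.inl rfl
      mul_mem' := by
        have e1 : a * (a * b) = b := by rw [← mul_assoc, ha2, one_mul]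
        have e2 : b * (a * b) = a := by rw [hc, ← mul_assoc, hb2, one_mul]
        have e3 : a * b * a = b := by rw [hc, mul_assoc, ha2, mul_one]
        have e4 : a * b * b = a := by rw [mul_assoc, hb2, mul_one]
        have e5 : a * b * (a * b) = 1 := by rw [mul_assoc, e2, ha2]
        rintro x y (rfl | rfl | rfl | rfl) (rfl | rfl | rfl | rfl) <;>
          simp [ha2, hb2, e1, e2, e3, e4, e5, ← hc]
      inv_mem' := by
        have e5 : a * b * (a * b) = 1 := by
          rw [mul_assoc, hc, ← mul_assoc b, hb2, one_mul, ha2]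
        rintro x (rfl | rfl | rfl | rfl) <;>
          simp [inv_eq_of_mul_eq_one_right ha2, inv_eq_of_mul_eq_one_right hb2,
            inv_eq_of_mul_eq_one_right e5] }
  have hV : ∀ x : V, x ^ 2 = 1 := by
    have e5 : a * b * (a * b) = 1 := by
      rw [mul_assoc, hc, ← mul_assoc b, hb2, one_mul, ha2]
    rintro ⟨x, rfl | rfl | rfl | rfl⟩ <;> apply Subtype.ext <;> simp [pow_two, ha2, hb2, e5]
  have hP : IsPGroup 2 V := fun x => ⟨1, by simpa using hV x⟩
  obtain ⟨g, hg⟩ := hP.isCyclic_of_isZGroup.exists_generator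
  have key : ∀ x : V, x = 1 ∨ x = g := by
    intro x
    obtain ⟨k, rfl⟩ := hg x
    simp only
    rcases Int.even_or_odd' k with ⟨m, rfl | rfl⟩
    · left; rw [zpow_mul, zpow_two, ← pow_two, hV, one_zpow]
    · right; rw [zpow_add, zpow_mul, zpow_two, ← pow_two, hV, one_zpow, one_mul, zpow_one]
  rcases key ⟨a, by simp [V]⟩ with e1 | e1
  · exact ha (congrArg Subtype.val e1)
  rcases key ⟨b, by simp [V]⟩ with e2 | e2
  · exact hb (congrArg Subtype.val e2)
  exact hab (congrArg Subtype.val (e1.trans e2.symm))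

theorem noZ_of {X : Type*} [Group X] [Finite X] (h : ∀ g : X, g ≠ 1 → ∃ u : X,
    g * u * g⁻¹ * u⁻¹ ≠ 1 ∧ g * u * g⁻¹ * u⁻¹ * (g * u * g⁻¹ * u⁻¹) = 1)
    (h' : ∀ a : X, a ≠ 1 → a * a = 1 → ∃ v : X, a ≠ v * a * v⁻¹ ∧
      a * (v * a * v⁻¹) = v * a * v⁻¹ * a) : NoZ X := by
  intro K hK hZ
  by_contra hne
  obtain ⟨⟨g, hg⟩, hg1⟩ := ne_bot_iff_exists_ne_one.1 hne
  obtain ⟨u, h1, h3⟩ := h g fun e => hg1 (Subtype.ext e)
  obtain ⟨v, h2, h4⟩ := h' _ h1 h3
  have ha : g * u * g⁻¹ * u⁻¹ ∈ K := by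
    simpa only [mul_assoc] using K.mul_mem hg (hK.conj_mem _ (K.inv_mem hg) u)
  refine not_isZGroup_of_klein (X := K) (a := ⟨_, ha⟩) (b := ⟨_, hK.conj_mem _ ha v⟩)
    (fun e => h1 (congrArg Subtype.val e)) (fun e => h1 ?_) (fun e => h2 (congrArg Subtype.val e))
    (Subtype.ext h3) (Subtype.ext ?_) (Subtype.ext h4) hZ
  · simpa using congrArg Subtype.val e
  · change v * _ * v⁻¹ * (v * _ * v⁻¹) = 1
    rw [conj_mul, h3, mul_one, mul_inv_cancel]

theorem noZ_A4 : NoZ (alternatingGroup (Fin 4)) := noZ_of (by decide +kernel) (by decide +kernel)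
theorem noZ_S4 : NoZ (Equiv.Perm (Fin 4)) := noZ_of (by decide +kernel) (by decide +kernel)

theorem noZ_A5 : NoZ (alternatingGroup (Fin 5)) := by
  intro K hK hZ
  have := alternatingGroup.isSimpleGroup (α := Fin 5) (by simp)
  refine (hK.eq_bot_or_eq_top).resolve_right fun e => ?_
  subst e
  have : IsZGroup (alternatingGroup (Fin 5)) :=
    IsZGroup.of_surjective (f := (⊤ : Subgroup (alternatingGroup (Fin 5))).subtype)
      fun x => ⟨⟨x, trivial⟩, rfl⟩
  have ha : Equiv.swap 0 1 * Equiv.swap 2 3 ∈ alternatingGroup (Fin 5) :=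
    Equiv.Perm.mem_alternatingGroup.2 (by decide)
  have hb : Equiv.swap 0 2 * Equiv.swap 1 3 ∈ alternatingGroup (Fin 5) :=
    Equiv.Perm.mem_alternatingGroup.2 (by decide)
  refine not_isZGroup_of_klein (a := ⟨_, ha⟩) (b := ⟨_, hb⟩) ?_ ?_ ?_ ?_ ?_ ?_ this <;>
    simp only [Ne, Subtype.ext_iff, coe_mul, coe_one] <;> decide

theorem noZ_S5 : NoZ (Equiv.Perm (Fin 5)) := by
  intro K hK hZ
  have h1 := noZ_A5 (K.subgroupOf _) (hK.subgroupOf _) (IsZGroup.of_injective
    (f := ((alternatingGroup (Fin 5)).subtype.comp (Subgroup.subtype _)).codRestrict K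
      fun x => x.2) fun a b e =>
        Subtype.ext (Subtype.ext (congrArg (fun y : K => (y : Equiv.Perm (Fin 5))) e)))
  rw [eq_bot_iff]
  intro g hg
  have key : ∀ g : Equiv.Perm (Fin 5), g * Equiv.swap 0 1 = Equiv.swap 0 1 * g →
      g * finRotate 5 = finRotate 5 * g → g = 1 := by decide +kernel
  have h2 : ∀ u, g * u = u * g := by
    intro u
    have ha : g * u * g⁻¹ * u⁻¹ ∈ K := by
      simpa only [mul_assoc] using K.mul_mem hg (hK.conj_mem _ (K.inv_mem hg) u)
    have hb : g * u * g⁻¹ * u⁻¹ ∈ alternatingGroup (Fin 5) := by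
      simp [Equiv.Perm.mem_alternatingGroup, mul_right_comm]
    have : (⟨_, hb⟩ : alternatingGroup (Fin 5)) ∈ K.subgroupOf _ := ha
    rw [h1, mem_bot] at this
    have := congrArg Subtype.val this
    rwa [coe_one, mul_inv_eq_one, mul_inv_eq_iff_eq_mul] at this
  exact key g (h2 _) (h2 _)

theorem NoZ.le_ker {X : Type*} [Group X] (hX : NoZ X) {f : G →* X} (hf : Function.Surjective f)
    {N : Subgroup G} (hN : N.Normal) (hZ : IsZGroup N) : N ≤ f.ker :=
  (Subgroup.map_eq_bot_iff _).1 (hX _ (hN.map f hf)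
    (IsZGroup.of_surjective (f.subgroupMap_surjective N)))

theorem not_isZGroup_klein : ¬ IsZGroup (DihedralGroup 2) :=
  not_isZGroup_of_klein (a := .r 1) (b := .sr 0) (by decide) (by decide) (by decide) (by decide)
    (by decide) (by decide)

/-- A homomorphism onto the Klein four-group is determined up to automorphism. -/
theorem IntFPF.ker_klein_le (h : IntFPF G) {f₁ f₂ : G →* DihedralGroup 2}
    (_h₂ : Function.Surjective f₂) (h₁ : Function.Surjective f₁) : f₁.ker ≤ f₂.ker := by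
  let f := f₁.prod f₂
  obtain ⟨P⟩ := (inferInstance : Nonempty (Sylow 2 G))
  have hD : ∀ x : DihedralGroup 2 × DihedralGroup 2, x * x = 1 := by decide
  have hD' : ∀ x y : DihedralGroup 2 × DihedralGroup 2, x * y = y * x := by decide
  have hp : IsPGroup 2 f.range := fun x => ⟨1, Subtype.ext (by simpa [pow_two] using hD x)⟩
  have hP : (P : Subgroup G).map f.rangeRestrict = ⊤ :=
    ((P.mapSurjective f.rangeRestrict_surjective).is_maximal' (hp.to_subgroup ⊤) le_top).symm
  have hgen : ∃ a b : P, ∀ x : P, ∃ i : ℤ, x = a ^ i ∨ x = b * a ^ i := by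
    rcases (h.subgroup P).two_cases P.2 with ⟨a, ha⟩ | ⟨n, ⟨e⟩⟩
    · exact ⟨a, 1, fun x => (ha x).imp fun i hi => Or.inl hi.symm⟩
    · refine ⟨e.symm (.a 1), e.symm (.xa 0), fun x => ?_⟩
      obtain ⟨i | i, rfl⟩ := e.symm.surjective x <;> obtain ⟨k, hk⟩ := quat_a_mem _ i <;>
        refine ⟨k, ?_⟩
      · left; rw [← map_zpow]; exact congrArg _ hk.symm
      · right; rw [← map_zpow, ← map_mul, show QuaternionGroup.a 1 ^ k = .a i from hk]; simp
  obtain ⟨a, b, hab⟩ := hgen
  have hall : ∀ g, f g = 1 ∨ f g = f a ∨ f g = f b ∨ f g = f b * f a := by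
    intro g
    obtain ⟨x, hx, e⟩ : f.rangeRestrict g ∈ (P : Subgroup G).map f.rangeRestrict := hP ▸ mem_top _
    have e' : f x = f g := congrArg Subtype.val e
    have hz : ∀ i : ℤ, f a ^ i = 1 ∨ f a ^ i = f a := by
      intro i
      rcases Int.even_or_odd' i with ⟨m, rfl | rfl⟩
      · left; rw [zpow_mul, zpow_two, hD, one_zpow]
      · right; rw [zpow_add, zpow_mul, zpow_two, hD, one_zpow, one_mul, zpow_one]
    obtain ⟨i, hi | hi⟩ := hab ⟨x, hx⟩
    · have hi' : f x = f a ^ i := by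
        have := congrArg (f.comp (P : Subgroup G).subtype) hi
        rw [map_zpow] at this
        exact this
      rcases hz i with e | e <;> rw [e] at hi' <;> simp [← e', hi']
    · have hi' : f x = f b * f a ^ i := by
        have := congrArg (f.comp (P : Subgroup G).subtype) hi
        rw [map_mul, map_zpow] at this
        exact this
      rcases hz i with e | e <;> rw [e] at hi' <;> simp [← e', hi']
  intro g hg
  have key : ∀ u v w : DihedralGroup 2 × DihedralGroup 2,
      (∀ y : DihedralGroup 2, y = 1 ∨ y = u.1 ∨ y = v.1 ∨ y = v.1 * u.1) →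
      (w = 1 ∨ w = u ∨ w = v ∨ w = v * u) → w.1 = 1 → w.2 = 1 := by decide +kernel
  refine key (f a) (f b) (f g) (fun y => ?_) (hall g) hg
  obtain ⟨g', rfl⟩ := h₁ y
  rcases hall g' with e | e | e | e <;> have := congrArg Prod.fst e <;> tauto

/-- The six types. -/
def CoreType (N : Subgroup G) : Prop :=
  N = ⊤ ∨ (∃ f : G →* DihedralGroup 2, Function.Surjective f ∧ f.ker = N) ∨
    (∃ f : G →* alternatingGroup (Fin 4), Function.Surjective f ∧ f.ker = N) ∨
    (∃ f : G →* Equiv.Perm (Fin 4), Function.Surjective f ∧ f.ker = N) ∨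
    (∃ f : G →* alternatingGroup (Fin 5), Function.Surjective f ∧ f.ker = N) ∨
    (∃ f : G →* Equiv.Perm (Fin 5), Function.Surjective f ∧ f.ker = N)

theorem CoreType.le_or {N N' : Subgroup G} (h : CoreType N) (hN : N'.Normal) (hZ : IsZGroup N') :
    N' ≤ N ∨ ∃ f : G →* DihedralGroup 2, Function.Surjective f ∧ f.ker = N := by
  rcases h with rfl | h | ⟨f, hf, rfl⟩ | ⟨f, hf, rfl⟩ | ⟨f, hf, rfl⟩ | ⟨f, hf, rfl⟩
  exacts [Or.inl le_top, Or.inr h, Or.inl (noZ_A4.le_ker hf hN hZ), Or.inl (noZ_S4.le_ker hf hN hZ),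
    Or.inl (noZ_A5.le_ker hf hN hZ), Or.inl (noZ_S5.le_ker hf hN hZ)]

theorem IntFPF.core_le (h : IntFPF G) {N N' : Subgroup G} (hN' : N'.Normal) (hZ' : IsZGroup N')
    (hT' : CoreType N') (hZ : IsZGroup N) (hT : CoreType N) : N' ≤ N := by
  rcases hT.le_or hN' hZ' with h1 | ⟨f, hf, rfl⟩
  · exact h1
  rcases hT'.le_or inferInstance hZ with h1 | ⟨f', hf', rfl⟩
  swap
  · exact h.ker_klein_le hf hf'
  have h2 := index_dvd_of_le h1
  rw [index_ker, MonoidHom.range_eq_top.2 hf, card_top, DihedralGroup.nat_card] at h2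
  have key : ∀ {X : Type} [Group X] (f' : G →* X), Function.Surjective f' → f'.ker = N' →
      Nat.card X ∣ 2 * 2 := by
    rintro X _ f' hf' rfl
    rwa [index_ker, MonoidHom.range_eq_top.2 hf', card_top] at h2
  rcases hT' with rfl | ⟨f', hf', rfl⟩ | ⟨f', hf', e⟩ | ⟨f', hf', e⟩ | ⟨f', hf', e⟩ | ⟨f', hf', e⟩
  · exact (not_isZGroup_klein (IsZGroup.of_surjective (f := f.comp (⊤ : Subgroup G).subtype)
      fun y => (hf y).elim fun g hg => ⟨⟨g, trivial⟩, hg⟩)).elim
  · exact h.ker_klein_le hf hf'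
  · have := key f' hf' e
    rw [alternatingGroup.card_of_card_eq_four (by simp)] at this
    omega
  · have := key f' hf' e
    rw [Nat.card_perm, Nat.card_fin] at this
    norm_num [Nat.factorial] at this
  · have := key f' hf' e
    have h2 := H10.card_alternatingGroup_fin 5 (by norm_num)
    have := Nat.le_of_dvd (by norm_num) this
    simp only [Nat.factorial] at h2
    omega
  · have := key f' hf' e
    rw [Nat.card_perm, Nat.card_fin] at this
    norm_num [Nat.factorial] at this

theorem IntFPF.existsUnique_core (h : IntFPF G) :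
    ∃! N : Subgroup G, N.Normal ∧ IsZGroup N ∧ CoreType N := by
  refine existsUnique_of_exists_of_unique ?_ fun N N' ⟨h1, h2, h3⟩ ⟨h1', h2', h3'⟩ =>
    le_antisymm (h.core_le h1 h2 h3 h2' h3') (h.core_le h1' h2' h3' h2 h3)
  by_cases hs : Group.IsSolvable G
  · obtain ⟨N, h1, h2, h3⟩ := h.exists_core_solvable hs
    exact ⟨N, h1, h2, h3.imp_right (Or.imp_right (Or.imp_right Or.inl))⟩
  · obtain ⟨N, h1, h2, h3⟩ := h.exists_core_nonsolvable hs
    exact ⟨N, h1, h2, Or.inr (Or.inr (Or.inr (Or.inr h3)))⟩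

end H82
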