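import Mathlib
import Cfsg.Agent.Base
import Cfsg.Agent.Lib.FrobC.Huppert
import Cfsg.Agent.Lib.FrobC.SL23
import Cfsg.Agent.Lib.FrobC.Perfect

/-!
Linear groups that are regular on the non-zero vectors (helper82).
-/

set_option autoImplicit false

namespace H82

open Subgroup Module Cfsg
open scoped commutatorElement

variable {q : ℕ} [hq : Fact q.Prime] {V : Type*} [AddCommGroup V] [Module (ZMod q) V]
  {G : Type*} [Group G] {ρ : G →* End (ZMod q) V}

/-- A linear representation that is regular on non-zero vectors. -/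
structure RegRep (ρ : G →* End (ZMod q) V) : Prop extends TrRep ρ where
  reg : ∀ v : V, v ≠ 0 → ∀ g, ρ g v = v → g = 1

/-- The inclusion of a linear group as a representation. -/
def subRep (H : Subgroup (V ≃ₗ[ZMod q] V)) : H →* End (ZMod q) V :=
  LinearEquiv.automorphismGroup.toLinearMapMonoidHom.comp H.subtype

theorem regRep_subRep {H : Subgroup (V ≃ₗ[ZMod q] V)}
    (hreg : ∀ v w : V, v ≠ 0 → w ≠ 0 → ∃! h : H, (h : V ≃ₗ[ZMod q] V) v = w) : RegRep (subRep H) :=
  ⟨⟨fun _ _ e => Subtype.ext (LinearEquiv.toLinearMap_injective e),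
    fun v w hv hw => (hreg v w hv hw).exists⟩, fun v hv _ e => (hreg v v hv hv).unique e rfl⟩

variable [Finite G] [Finite V]

omit [Finite G] in
theorem card_dvd_of_invariant (h : ∀ v : V, v ≠ 0 → ∀ g, ρ g v = v → g = 1) {A : Subgroup G}
    {W : Submodule (ZMod q) V} (hW : ∀ a ∈ A, ∀ v ∈ W, ρ a v ∈ W) :
    Nat.card A ∣ q ^ finrank (ZMod q) W - 1 := by
  let act : MulAction A ((W : Set V) \ {0} : Set V) :=
    { smul := fun a k => ⟨ρ a k, hW a a.2 k k.2.1, rep_ne_zero _ k.2.2⟩
      one_smul := fun k => Subtype.ext (by change ρ 1 k = k; simp)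
      mul_smul := fun a b k => Subtype.ext (by change ρ (a * b) k = ρ a (ρ b k); simp) }
  have hd := H2.card_dvd_of_free (A := A) (X := ((W : Set V) \ {0} : Set V)) fun a k e =>
    Subtype.ext (h k k.2.2 a (congrArg Subtype.val e))
  rwa [Nat.card_coe_set_eq, Set.ncard_sdiff_singleton_of_mem W.zero_mem, ← Nat.card_coe_set_eq,
    SetLike.coe_sort_coe, card_V (q := q) (V := W)] at hd

variable [Nontrivial V]

theorem RegRep.intFPF (h : RegRep ρ) : IntFPF G := by
  let σ : G →* AddMonoid.End V :=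
    { toFun := fun g => (ρ g).toAddMonoidHom
      map_one' := by rw [map_one]; rfl
      map_mul' := fun _ _ => by rw [map_mul]; rfl }
  have hf : FPF (autOfEnd σ) := by
    intro a ha k hk
    by_contra h0
    exact ha (h.reg k.toAdd h0 a hk)
  exact hf.intFPF

omit [Finite G] in
theorem RegRep.card_eq (h : RegRep ρ) : Nat.card G = q ^ finrank (ZMod q) V - 1 := by
  refine Nat.dvd_antisymm ?_ h.card_dvd
  have := card_dvd_of_invariant h.reg (A := ⊤) (W := ⊤) fun _ _ _ _ => trivial
  rwa [card_top, finrank_top] at this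

omit [Finite V] [Nontrivial V] in
theorem Crit.equiv_q8 {E : Subgroup G} (hG : IntFPF G) (hE : Crit 2 E)
    (hna : ¬ E ≤ centralizer (E : Set G)) : Nonempty (E ≃* QuaternionGroup 2) := by
  rcases (hG.subgroup E).two_cases hE.isPGroup with h | ⟨n, ⟨e⟩⟩
  · exact (hna (le_centralizer_iff_isMulCommutative.2 h.isMulCommutative)).elim
  have h1 := hE.comm _ (e.symm (.a 1)).2 _ (e.symm (.xa 0)).2 _ (e.symm (.xa 0)).2
  have h2 : e.symm (.xa 0) * ⁅e.symm (.a 1), e.symm (.xa 0)⁆ =
      ⁅e.symm (.a 1), e.symm (.xa 0)⁆ * e.symm (.xa 0) := Subtype.ext h1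
  have h3 := congrArg e h2
  simp only [map_mul, map_commutatorElement, MulEquiv.apply_symm_apply] at h3
  have h4 : (QuaternionGroup.a 1 : QuaternionGroup (2 ^ (n + 1))) ^ 4 = 1 := by
    have h5 : ⁅(QuaternionGroup.a 1 : QuaternionGroup (2 ^ (n + 1))),
        (QuaternionGroup.xa 0 : QuaternionGroup (2 ^ (n + 1)))⁆ = QuaternionGroup.a 2 := by
      rw [commutatorElement_def, mul_inv_eq_iff_eq_mul, mul_inv_eq_iff_eq_mul]
      simp only [QuaternionGroup.a_mul_xa, QuaternionGroup.xa_mul_a]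
      congr 1; ring
    rw [h5, QuaternionGroup.xa_mul_a, QuaternionGroup.a_mul_xa, QuaternionGroup.xa.injEq] at h3
    rw [QuaternionGroup.a_one_pow, QuaternionGroup.one_def]
    congr 1
    push_cast
    linear_combination h3
  have h5 := Nat.le_of_dvd (by norm_num) (orderOf_dvd_of_pow_eq_one h4)
  rw [QuaternionGroup.orderOf_a_one, pow_succ] at h5
  obtain rfl : n = 0 := by
    by_contra h0
    have := Nat.one_lt_two_pow h0
    omega
  exact ⟨e⟩

theorem RegRep.not_gam (h : RegRep ρ) [Group.IsSolvable G] (hΓ : ¬ Gam ρ) :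
    finrank (ZMod q) V = 2 ∧ (q = 5 ∨ q = 7 ∨ q = 11 ∨ q = 23) := by
  have hc := h.card_eq
  rcases h.huppert hΓ with ⟨h1, rfl | h2⟩ | ⟨h1, rfl, h2⟩
  · exfalso
    rw [h1] at hc
    obtain ⟨N, n1, n2⟩ := Sylow.exists_subgroup_card_pow_prime 2 (n := 2) (G := G) (by
      rw [hc]; norm_num) |>.imp fun N hN => And.intro (normal_of_index_eq_two (H := N) (by
        have := N.card_mul_index
        rw [hN, hc] at this
        omega)) hN
    have h3 := card_le_of_le ((h.dim_two hΓ h1).1 N n1
      (IsPGroup.isMulCommutative_of_card_eq_prime_sq n2))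
    have h4 := Nat.le_of_dvd (by norm_num) (h.dim_two hΓ h1).2.2.1
    omega
  · exact ⟨h1, h2⟩
  · rw [hc, h1] at h2
    norm_num at h2

omit [Finite V] [Nontrivial V] [Finite G] in
theorem exists_index_two_of_two_group {X : Type*} [Group X] [Finite X] (f : G →* X)
    (hX : IsPGroup 2 f.range) (hf : f.range ≠ ⊥) : ∃ N : Subgroup G, N.Normal ∧ N.index = 2 := by
  have := (nontrivial_iff_ne_bot _).2 hf
  obtain ⟨M, -, h1, h2, -⟩ := H5.exists_le_normal_index_eq hX (K := ⊥) bot_ne_top
  exact ⟨M.comap f.rangeRestrict, inferInstance,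
    (index_comap_of_surjective _ f.rangeRestrict_surjective).trans h2⟩

omit [Finite V] [Nontrivial V] in
theorem exists_index_two_of_metacyclic (C : Subgroup G) [C.Normal] (h1 : IsCyclic C)
    (h2 : IsCyclic (G ⧸ C)) (h3 : 2 ∣ Nat.card G) : ∃ N : Subgroup G, N.Normal ∧ N.index = 2 := by
  by_cases h4 : 2 ∣ C.index
  · let _ := h2.commGroup
    refine ⟨(powMonoidHom 2 : G ⧸ C →* G ⧸ C).range.comap (QuotientGroup.mk' C), inferInstance, ?_⟩
    rw [index_comap_of_surjective _ (QuotientGroup.mk'_surjective C),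
      IsCyclic.index_powMonoidHom_range]
    exact Nat.gcd_eq_right h4
  · obtain ⟨P⟩ := (inferInstance : Nonempty (Sylow 2 G))
    obtain ⟨k, hk⟩ := P.2.exists_card_eq
    have h5 : (P : Subgroup G) ≤ C := H1.le_of_coprime_index (by
      rw [hk]; exact ((Nat.Prime.coprime_iff_not_dvd Nat.prime_two).2 h4).pow_left k)
    have h6 : IsCyclic P := isCyclic_of_injective _ (inclusion_injective h5)
    have h7 := h6.isComplement' (P := P) ((Nat.minFac_eq_two_iff _).2 h3)
    refine exists_index_two_of_two_group (MonoidHom.transferSylow P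
      (h6.normalizer_le_centralizer ((Nat.minFac_eq_two_iff _).2 h3))) (P.2.to_subgroup _)
      fun e => ?_
    have h8 := h7.symm.index_eq_card
    rw [index_ker, e, card_bot] at h8
    exact P.ne_bot_of_dvd_card h3 (card_eq_one.1 h8.symm)

theorem TrRep.exists_index_two (h : TrRep ρ) (hΓ : Gam ρ) (h2 : q ≠ 2) :
    ∃ N : Subgroup G, N.Normal ∧ N.index = 2 := by
  obtain ⟨A, _, hA, hI⟩ := hΓ
  obtain ⟨-, -, -, -, -, h3, -⟩ := h.exists_deg A hA.isMulCommutative
  obtain ⟨-, -, h4, -⟩ := h.exists_deg _ (h.comm_centralizer hA.isMulCommutative hI)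
  refine exists_index_two_of_metacyclic _ h4 h3 (Dvd.dvd.trans ?_ h.card_dvd)
  exact (Nat.Odd.sub_odd (hq.out.odd_of_ne_two h2).pow odd_one).two_dvd

omit [Finite V] [Nontrivial V] [Finite G] in
theorem not_le_centralizer_of_relIndex {E : Subgroup G} (h4 : (center G).relIndex E = 4)
    (hC : centralizer (E : Set G) = center G) : ¬ E ≤ centralizer (E : Set G) := fun h => by
  rw [hC, ← relIndex_eq_one] at h
  omega

theorem RegRep.index_two_or (h : RegRep ρ) [Group.IsSolvable G] (h2 : q ≠ 2) :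
    (∃ N : Subgroup G, N.Normal ∧ N.index = 2) ∨ (Nat.card V = 25 ∧ Nonempty (G ≃* SL23)) ∨
      (Nat.card V = 121 ∧ Nonempty (G ≃* SL23 × Multiplicative (ZMod 5))) := by
  refine or_iff_not_imp_left.2 fun hN => ?_
  have hΓ : ¬ Gam ρ := fun hΓ => hN (h.exists_index_two hΓ h2)
  obtain ⟨h1, h3⟩ := h.not_gam hΓ
  obtain ⟨-, hc, h4, -, E, hE, h5, h6⟩ := h.dim_two hΓ h1
  have := hE.normal
  obtain ⟨f, hf⟩ := hE.exists_perm hc h5 h6
  obtain ⟨e⟩ := hE.equiv_q8 h.intFPF (not_le_centralizer_of_relIndex h5 h6)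
  have h7 : (center G).index = 4 * Nat.card f.range := by
    rw [← relIndex_mul_index (le_sup_right : center G ≤ E ⊔ center G), relIndex_sup_right, h5,
      ← hf, index_ker]
  have h8 : Nat.card f.range = 3 := by
    have h9 : f.range ≤ alternatingGroup (Fin 3) := by
      rintro _ ⟨g, rfl⟩
      by_contra hg
      refine hN (exists_index_two_of_two_group (Equiv.Perm.sign.comp f)
        ((IsPGroup.of_card (n := 1) (by simp)).to_subgroup _) fun e => hg ?_)
      exact (e.le ⟨g, rfl⟩ :)
    have h10 := card_dvd_of_le h9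
    rw [show Nat.card (alternatingGroup (Fin 3)) = 3 by
      rw [Nat.card_eq_fintype_card]; decide] at h10
    refine ((Nat.dvd_prime Nat.prime_three).1 h10).resolve_left fun e => ?_
    rw [e] at h7
    refine hN (exists_index_two_of_two_group (QuotientGroup.mk' (center G))
      ((IsPGroup.of_card (p := 2) (G := G ⧸ center G) (n := 2) h7).to_subgroup _) fun e' => ?_)
    rw [QuotientGroup.range_mk'] at e'
    have := card_top (G := G ⧸ center G)
    rw [e', card_bot, ← index_eq_card, h7] at this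
    omega
  have h9 := (center G).index_mul_card
  have hG := h.card_eq
  rw [h7, h8, hG, h1] at h9
  rw [h1] at hG
  have h10 := Nat.le_of_dvd (Nat.sub_pos_of_lt hq.out.one_lt) h4
  obtain ⟨x, hx⟩ := exists_prime_orderOf_dvd_card' (G := G) 3
    (by rw [hG, ← h9]; exact (by norm_num : 3 ∣ 4 * 3).mul_right _)
  obtain ⟨φ, hφ, -⟩ := exists_SL23_of_q8 e (x := x) (by simp [normalizer_eq_top])
    (hx ▸ pow_orderOf_eq_one x) fun hxc => by
      have := H1.orderOf_dvd_card_of_mem (h6 ▸ hxc)
      rw [hx] at this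
      rcases h3 with rfl | rfl | rfl | rfl <;> omega
  rw [card_V (q := q), h1]
  rcases h3 with rfl | rfl | rfl | rfl
  · exact Or.inl ⟨rfl, ⟨(MulEquiv.ofBijective φ ((Nat.bijective_iff_injective_and_card _).2
      ⟨hφ, by rw [card_SL23, hG]; rfl⟩)).symm⟩⟩
  · rw [show Nat.card (center G) = 4 by omega] at h4
    norm_num at h4
  · have := Fact.mk Nat.prime_five
    obtain ⟨c, c1, c2⟩ := H1.exists_mem_orderOf_eq_prime (H := center G) Nat.prime_five (by omega)
    let ψ := φ.noncommCoprod (zpowers c).subtype fun s y =>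
      mem_center_iff.1 (zpowers_le.2 c1 y.2) (φ s)
    have hψ : Function.Injective ψ := by
      refine (MonoidHom.noncommCoprod_injective _ _ _).2
        ⟨hφ, subtype_injective _, disjoint_of_coprime_natCard ?_⟩
      rw [range_subtype, Nat.card_zpowers, c2, ← Nat.card_congr (MonoidHom.ofInjective hφ).toEquiv, card_SL23]
      norm_num
    refine Or.inr ⟨rfl, ⟨(MulEquiv.ofBijective ψ ((Nat.bijective_iff_injective_and_card _).2
      ⟨hψ, by rw [Nat.card_prod, card_SL23, hG, Nat.card_zpowers, c2]; rfl⟩)).symm.trans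
      (MulEquiv.prodCongr (MulEquiv.refl _) (mulEquivOfPrimeCardEq (p := 5)
        (by rw [Nat.card_zpowers, c2]) (by simp)))⟩⟩
  · exfalso; omega

end H82
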