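import Mathlib
import Cfsg.Agent.Base
import Cfsg.Agent.Lib.FrobC.Perfect

/-!
Fixed-point-free actions of the quaternion group: the kernel has square order (helper82).
-/

set_option autoImplicit false

namespace H82

open Subgroup

theorem exists_sq_add_sq_add_one {n : ℕ} (hn : Odd n) : ∃ a b : ℕ, n ∣ a ^ 2 + b ^ 2 + 1 := by
  obtain ⟨k, rfl⟩ := hn
  have hc : (4 * k + 1).Coprime (4 * (2 * k + 1)) := by
    have : 4 * (2 * k + 1) = 2 + (4 * k + 1) * 2 := by ring
    rw [this, Nat.coprime_add_mul_left_right, Nat.coprime_two_right]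
    exact ⟨2 * k, by ring⟩
  obtain ⟨p, -, hp, h⟩ := Nat.forall_exists_prime_gt_and_modEq 0 (by omega) hc
  have := Fact.mk hp
  have h1 : p % 4 = (4 * k + 1) % 4 := h.of_mul_right _
  obtain ⟨a, b, hab⟩ := Nat.Prime.sq_add_sq (p := p) (by omega)
  refine ⟨a, b, ?_⟩
  rw [hab, ← Nat.modEq_zero_iff_dvd]
  refine ((h.of_mul_left 4).add_right 1).trans (Nat.modEq_zero_iff_dvd.2 ⟨2, by ring⟩)

theorem square_of_quat {A X : Type*} [Group A] [Finite A] [AddCommGroup X] [Finite X]
    (ρ : A →* Module.End ℤ X) (h : ∀ a : A, a ≠ 1 → ∀ x : X, ρ a x = x → x = 0) {i j : A}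
    (hi : ρ i * ρ i = -1) (hj : ρ j * ρ j = -1) (hij : ρ j * ρ i = -(ρ i * ρ j))
    (hodd : Odd (Nat.card X)) : ∃ Q : ℕ, Nat.card X = Q * Q ∧
      ∀ C : Subgroup A, (∀ c ∈ C, Commute c i ∧ Commute c j) → Nat.card C ∣ Q - 1 := by
  obtain ⟨a, b, c, hc⟩ := exists_sq_add_sq_add_one hodd
  have hn : (Nat.card X) • (1 : Module.End ℤ X) = 0 := by
    ext x; simp
  set I := ρ i with hI
  set J := ρ j with hJ
  let u : Module.End ℤ X := a • I + b • (I * J)
  have h5 : ∀ y, I * (I * y) = -y := fun y => by rw [← mul_assoc, hi, neg_one_mul]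
  have h6 : ∀ y, J * (I * y) = -(I * (J * y)) := fun y => by
    rw [← mul_assoc, hij, neg_mul, mul_assoc]
  have hu : u * u = 1 := by
    have h1 : (a ^ 2 + b ^ 2 + 1) • (1 : Module.End ℤ X) = 0 := by
      rw [hc, mul_comm, mul_smul, hn, smul_zero]
    simp only [u, mul_add, add_mul, smul_mul_assoc, mul_smul_comm, mul_assoc, h5, h6, hi, hj, hij,
      mul_neg, neg_neg, mul_one]
    linear_combination (norm := module) (-1 : ℤ) • h1
  have hJu : J * u = -(u * J) := by
    simp only [u, mul_add, add_mul, smul_mul_assoc, mul_smul_comm, mul_assoc, h6, hj, hij,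
      mul_neg, neg_neg, mul_one]
    module
  have hmem : ∀ x, x ∈ LinearMap.ker (u - 1) ↔ u x = x := fun x => by
    rw [LinearMap.mem_ker, LinearMap.sub_apply, sub_eq_zero, Module.End.one_apply]
  have hmem' : ∀ x, x ∈ LinearMap.ker (u + 1) ↔ u x = -x := fun x => by
    rw [LinearMap.mem_ker, LinearMap.add_apply, add_eq_zero_iff_eq_neg, Module.End.one_apply]
  have huu : ∀ x, u (u x) = x := fun x => LinearMap.congr_fun hu x
  have hJJ : ∀ x, J (J x) = -x := fun x => LinearMap.congr_fun hj x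
  have hJu' : ∀ x, u (J x) = -J (u x) := fun x => by
    have := LinearMap.congr_fun hJu x
    rw [Module.End.mul_apply, LinearMap.neg_apply, Module.End.mul_apply] at this
    rw [this, neg_neg]
  have hr : LinearMap.range (u + 1) = LinearMap.ker (u - 1) := by
    ext x
    rw [hmem]
    constructor
    · rintro ⟨y, rfl⟩
      simp [huu, add_comm]
    · intro hx
      obtain ⟨k, hk⟩ := hodd
      refine ⟨(k + 1) • x, ?_⟩
      have : (2 * k + 1) • x = 0 := by rw [← hk]; simp
      simp only [LinearMap.add_apply, map_nsmul, hx, Module.End.one_apply]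
      linear_combination (norm := module) this
  have he : Nat.card (LinearMap.ker (u + 1)) = Nat.card (LinearMap.ker (u - 1)) := by
    refine Nat.card_congr ⟨fun x => ⟨J x, ?_⟩, fun x => ⟨-J x, ?_⟩, fun x => ?_, fun x => ?_⟩
    · rw [hmem, hJu', (hmem' _).1 x.2, map_neg, neg_neg]
    · rw [hmem', map_neg, hJu', (hmem _).1 x.2]
    · ext; simp [hJJ]
    · ext; simp [hJJ]
  refine ⟨Nat.card (LinearMap.ker (u - 1)), ?_, fun C hC => ?_⟩
  · rw [Submodule.card_eq_card_quotient_mul_card (LinearMap.ker (u + 1)),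
      Nat.card_congr (LinearMap.quotKerEquivRange (u + 1)).toEquiv, hr, he]
  · have hcu : ∀ c : C, ∀ x, u (ρ c x) = ρ c (u x) := by
      intro c x
      have h1 : Commute (ρ c) I := (hC c c.2).1.map ρ
      have h2 : Commute (ρ c) J := (hC c c.2).2.map ρ
      exact LinearMap.congr_fun
        ((h1.smul_right a).add_right ((h1.mul_right h2).smul_right b)).symm x
    let ρ' : C →* AddMonoid.End (LinearMap.ker (u - 1)) :=
      { toFun := fun c =>
          { toFun := fun x => ⟨ρ c x, by rw [hmem, hcu, (hmem _).1 x.2]⟩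
            map_zero' := by ext; simp
            map_add' := fun x y => by ext; simp }
        map_one' := AddMonoidHom.ext fun x => Subtype.ext (LinearMap.congr_fun (map_one ρ) x)
        map_mul' := fun c d => AddMonoidHom.ext fun x =>
          Subtype.ext (LinearMap.congr_fun (map_mul ρ (c : A) (d : A)) (x : X)) }
    have hf : FPF (autOfEnd ρ') := fun c hc k hk =>
      Subtype.ext (h c (fun e => hc (Subtype.ext e)) _ (congrArg Subtype.val hk))
    exact hf.card_dvd

theorem FPF.square {A K : Type*} [Group A] [Finite A] [Group K] [Finite K] {φ : A →* MulAut K}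
    (h : FPF φ) {i j z : A} (hz : orderOf z = 2) (hi : i * i = z) (hj : j * j = z)
    (hij : j * i = z * (i * j)) : Odd (Nat.card K) ∧ ∃ Q : ℕ, Nat.card K = Q * Q ∧
      ∀ C : Subgroup A, (∀ c ∈ C, Commute c i ∧ Commute c j) → Nat.card C ∣ Q - 1 := by
  obtain ⟨h1, h2, h3⟩ := h.comm_of_even hz
  let _ : CommGroup K := { (inferInstance : Group K) with mul_comm := h2 }
  let ρ : A →* Module.End ℤ (Additive K) :=
    { toFun := fun g => (MonoidHom.toAdditive (φ g).toMonoidHom).toIntLinearMap
      map_one' := by ext x; simp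
      map_mul' := fun g g' => by ext x; simp }
  have hρ : ρ z = -1 := by
    ext x
    exact h1 x.toMul
  exact ⟨h3, square_of_quat ρ (fun a ha x hx => h a ha x.toMul hx) (by rw [← map_mul, hi, hρ])
    (by rw [← map_mul, hj, hρ]) (by rw [← map_mul, hij, map_mul, hρ, map_mul, neg_one_mul]) h3⟩

theorem exists_q8_of_quat {G : Type*} [Group G] {n : ℕ}
    (f : QuaternionGroup (2 ^ (n + 1)) →* G) (hf : Function.Injective f) :
    ∃ i j z : G, orderOf z = 2 ∧ i * i = z ∧ j * j = z ∧ j * i = z * (i * j) := by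
  refine ⟨f (.a (2 ^ n : ℕ)), f (.xa 0), f (.a (2 ^ (n + 1) : ℕ)), ?_, ?_, ?_, ?_⟩
  · rw [orderOf_injective f hf, ← QuaternionGroup.a_one_pow, orderOf_pow,
      QuaternionGroup.orderOf_a_one, Nat.gcd_eq_right (Dvd.intro_left _ rfl),
      Nat.mul_div_cancel _ (by positivity)]
  · rw [← map_mul, QuaternionGroup.a_mul_a]
    congr 2
    push_cast; ring
  · rw [← map_mul, QuaternionGroup.xa_mul_xa, add_zero, sub_zero]
  · simp only [← map_mul, QuaternionGroup.a_mul_xa, QuaternionGroup.xa_mul_a]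
    congr 2
    have := ZMod.natCast_self (2 * 2 ^ (n + 1))
    push_cast at this ⊢
    linear_combination this

/-- A non-cyclic Sylow subgroup contains a quaternion group of order eight. -/
theorem IntFPF.exists_q8 {G : Type*} [Group G] [Finite G] (h : IntFPF G) {p : ℕ} [Fact p.Prime]
    {P : Subgroup G} (hP : IsPGroup p P) (hc : ¬ IsCyclic P) :
    ∃ i j z : G, orderOf z = 2 ∧ i * i = z ∧ j * j = z ∧ j * i = z * (i * j) := by
  obtain rfl : p = 2 := by
    by_contra h2
    exact hc (h.isCyclic_of_odd h2 hP)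
  obtain ⟨n, ⟨e⟩⟩ := ((h.subgroup P).two_cases hP).resolve_left hc
  exact exists_q8_of_quat (P.subtype.comp e.symm.toMonoidHom)
    (P.subtype_injective.comp e.symm.injective)

/-- Evaluation of integral quaternions. -/
def HQ.evInt {R : Type*} [Ring R] {I J : R} (hI : I * I = -1) (hJ : J * J = -1)
    (hIJ : J * I = -(I * J)) : HQ ℤ →+* R where
  toFun a := a.r • (1 : R) + a.i • I + a.j • J + a.k • (I * J)
  map_one' := by simp [HQ.one_def]
  map_zero' := by simp [HQ.zero_def]
  map_add' a b := by simp only [HQ.add_def]; module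
  map_mul' a b := by
    have h5 : ∀ y, I * (I * y) = -y := fun y => by rw [← mul_assoc, hI, neg_one_mul]
    have h6 : ∀ y, J * (I * y) = -(I * (J * y)) := fun y => by
      rw [← mul_assoc, hIJ, neg_mul, mul_assoc]
    simp only [HQ.mul_def, mul_add, add_mul, smul_mul_assoc, mul_smul_comm, mul_assoc, h5, h6, hI,
      hJ, hIJ, mul_neg, mul_one, one_mul, neg_neg]
    module

/-- The quaternion group inside the integral quaternions. -/
def q8Hom : QuaternionGroup 2 →* HQ ℤ where
  toFun g := QuaternionGroup.casesOn g (fun i => (⟨0, 1, 0, 0⟩ : HQ ℤ) ^ i.val)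
    (fun i => ⟨0, 0, 1, 0⟩ * (⟨0, 1, 0, 0⟩ : HQ ℤ) ^ i.val)
  map_one' := by decide +kernel
  map_mul' := by decide +kernel

theorem q8Hom_sq : ∀ g : QuaternionGroup 2, g ≠ 1 → q8Hom g = -1 ∨ q8Hom g * q8Hom g = -1 := by
  decide +kernel

theorem exists_frob_q8 {k : ℕ} (hk : Odd k) (h1 : 1 < k) :
    ∃ (L : Type) (_ : Group L) (_ : Finite L) (H : Subgroup L), Cfsg.IsFrobeniusComplement H ∧
      Nonempty (QuaternionGroup 2 ≃* H) ∧ Nat.card (Cfsg.frobeniusKernel H) = k * k := by
  have : NeZero k := ⟨by omega⟩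
  have : Fact (1 < k) := ⟨h1⟩
  obtain ⟨a, b, hab⟩ := exists_sq_add_sq_add_one hk
  rw [← ZMod.natCast_eq_zero_iff] at hab
  push_cast at hab
  let I : Matrix (Fin 2) (Fin 2) (ZMod k) := !![0, -1; 1, 0]
  let J : Matrix (Fin 2) (Fin 2) (ZMod k) := !![a, b; b, -a]
  have hI : I * I = -1 := by
    ext i j; fin_cases i <;> fin_cases j <;> simp [I]
  have hJ : J * J = -1 := by
    ext i j; fin_cases i <;> fin_cases j <;> simp [J]
    · linear_combination hab
    · ring
    · ring
    · linear_combination hab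
  have hIJ : J * I = -(I * J) := by
    ext i j; fin_cases i <;> fin_cases j <;> simp [I, J]
  let ψ : HQ ℤ →+* Module.End (ZMod k) (Fin 2 → ZMod k) :=
    (Matrix.toLinAlgEquiv' (R := ZMod k) (n := Fin 2)).toRingEquiv.toRingHom.comp
      (HQ.evInt hI hJ hIJ)
  have : Nontrivial (QuaternionGroup 2) := ⟨1, .xa 0, by decide⟩
  obtain ⟨L, _, _, H, h2, h3, h4⟩ := exists_frob_of_rep.{0, 0, 0} (R := ZMod k)
    (X := Fin 2 → ZMod k) (ψ.toMonoidHom.comp q8Hom) (by
      intro g hg x hx
      change ψ (q8Hom g) x = x at hx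
      have h2 : -x = x := by
        rcases q8Hom_sq g hg with e | e
        · rwa [e, map_neg, map_one] at hx
        · have := LinearMap.congr_fun (congrArg ψ e) x
          rw [map_mul, Module.End.mul_apply, hx, hx, map_neg, map_one] at this
          exact this.symm
      obtain ⟨m, hm⟩ := hk
      have h3 : (2 * m + 1) • x = 0 := by rw [← hm, ← Nat.cast_smul_eq_nsmul (ZMod k)]; simp
      linear_combination (norm := module) h3 + m • h2)
  exact ⟨L, inferInstance, inferInstance, H, h2, h3, by rw [h4]; simp [pow_two]⟩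

end H82
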